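import Mathlib
import Cfsg.Agent.Lib.Block.CanExt
import Cfsg.Agent.Lib.Block.Subsec

/-!
The Fong–Swan theorem in the form of Isaacs: in a `p`-solvable group the indecomposable
restrictions of characters to the `p`-regular elements are linearly independent.
-/

set_option autoImplicit false

open Cfsg

namespace H34

universe u

variable {p : ℕ} [hp : Fact p.Prime]

/-- Characters over `ξ|_L` agree on `p`-regular elements with characters over `ξ|_M`. -/
def RC (p : ℕ) (G : Type*) [Group G] : Prop :=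
  ∀ (L M : Subgroup G) (ξ : G → ℂ), Ctx p L M ξ → ∀ χ, IsCharacter G χ → Hom L ξ χ →
    ∃ α, IsCharacter G α ∧ Hom M ξ α ∧ pRegularPart p α = pRegularPart p χ

section
variable {G : Type*} [Group G] [Finite G] {L M H : Subgroup G} {ζ : G → ℂ}

theorem reg_eq_of_res (hG : IsPSolvable p G) (h : Ctx p L M ζ) (hLH : L ≤ H) (hsup : M ⊔ H = ⊤)
    {α β : G → ℂ} (hα : IsClassFunction G α) (hβ : IsClassFunction G β)
    (e : pRegularPart p (fun x : H => α x) = pRegularPart p (fun x : H => β x)) :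
    pRegularPart p α = pRegularPart p β := by
  haveI := h.nL
  haveI := h.nM
  refine H84.reg_ext fun x hx => ?_
  obtain ⟨g, hg⟩ := exists_conj_mem_of_supplement hG h.le h.rel hLH hsup hx
  rw [← hα x g, ← hβ x g]
  exact H84.reg_eq_iff.1 e ⟨_, hg⟩ (by rwa [← Subgroup.orderOf_coe, H35.orderOf_conj])

omit hp in
theorem lift_char (h : Ctx p L M ζ) (hLH : L ≤ H) (hsup : M ⊔ H = ⊤) (hH : RC p H) {β : H → ℂ}
    (hβ : IsCharacter H β) (ho : Hom (L.subgroupOf H) (fun x => ζ x) β) :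
    ∃ α, IsCharacter G α ∧ Hom M ζ α ∧ pRegularPart p (fun x : H => α x) = pRegularPart p β := by
  haveI := h.nM
  obtain ⟨β', h1, h2, h3⟩ := hH _ _ _ (h.res hLH) β hβ ho
  obtain ⟨α, h4, h5, h6⟩ := exists_ext_char hsup h.irM h.inv (h.res hLH).irM h1 h2
  exact ⟨α, h4, h5, by rw [funext h6, h3]⟩

omit [Finite G] in
theorem inf_le_of_relP {A B C : Subgroup G} [Finite C] (rel : H76.RelP p A B)
    (hC : ¬ p ∣ Nat.card C) {x : G} (hB : x ∈ B) (hx : x ∈ C) : x ∈ A := by
  obtain ⟨k, hk⟩ := rel x hB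
  refine H76.mem_of_pow_mem_of_coprime (b := Nat.card C)
    (Nat.Coprime.pow_left k ((Nat.Prime.coprime_iff_not_dvd hp.out).2 hC)) hk ?_
  have : x ^ Nat.card C = 1 := congrArg Subtype.val (pow_card_eq_one' (x := (⟨x, hx⟩ : C)))
  rw [this]; exact A.one_mem

/-- A character of a normal `p'`-subgroup `K ≥ L` over `ζ` extends to `M K` over `ζ|_M`. -/
theorem Ctx.exists_ext_sup (h : Ctx p L M ζ) {K : Subgroup G} (hLK : L ≤ K)
    (hK : ¬ p ∣ Nat.card K) {τ : G → ℂ} (hτ : IrrOn K τ) (ho : Hom L ζ τ) :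
    ∃ τ' : (M ⊔ K : Subgroup G) → ℂ, IsIrrCharacter _ τ' ∧
      Hom (M.subgroupOf (M ⊔ K)) (fun x => ζ x) τ' ∧ 
      (∀ x : (M ⊔ K : Subgroup G), (x : G) ∈ K → τ' x = τ x) ∧ PD p τ' := by
  haveI := h.nM
  set R := M ⊔ K
  have hsup : M.subgroupOf R ⊔ K.subgroupOf R = ⊤ := by
    rw [← Subgroup.subgroupOf_sup le_sup_left le_sup_right, Subgroup.subgroupOf_self]
  have hR := h.res (H := R) (hLK.trans le_sup_right)
  obtain ⟨τ', h1, h2, h3⟩ := exists_ext_irr hsup hR.irM hR.inv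
    (irrOn_of_hom h.irL ((R.subtype.comp (K.subgroupOf R).subtype).comp
      ((M.subgroupOf R).subgroupOf (K.subgroupOf R)).subtype)
      (fun a => inf_le_of_relP h.rel hK a.2 a.1.2)
      (fun k hk => ⟨⟨⟨⟨k, Subgroup.mem_sup_right (hLK hk)⟩, hLK hk⟩, h.le hk⟩, rfl⟩))
    (hτ.subgroupOf le_sup_right)
    (ho.imp fun e he n hn => he _ (inf_le_of_relP h.rel hK hn n.2))
  refine ⟨τ', h1, h2, fun x hx => h3 ⟨x, hx⟩, fun e => ?_⟩
  have hc := H6.irr_isCharacter h1
  obtain ⟨m, hm⟩ := h2.exists_nat hR.irM (H6.isCharacter_restrict _ hc)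
  set n := orderOf (H31.detHom fun x : M.subgroupOf R => ζ ((x : R) : G)) * Nat.card K with hn
  have h4 : orderOf (H31.detHom τ') ∣ n := by
    rw [H31.orderOf_hom_dvd_iff]
    intro g
    have hg : g ∈ (H31.detHom τ' ^ n).ker := by
      refine (sup_le (fun x hx => ?_) (fun x hx => ?_) :
        M.subgroupOf R ⊔ K.subgroupOf R ≤ _) (hsup ▸ Subgroup.mem_top g)
      · rw [MonoidHom.mem_ker, MonoidHom.pow_apply]
        have := H31.detHom_of_ext (M.subgroupOf R) hc
          (ϑ := (m : ℂ) • fun x : M.subgroupOf R => ζ ((x : R) : G)) (fun y => hm y y.2) ⟨x, hx⟩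
        rw [H31.detHom_nsmul hR.chM] at this
        rw [this, ← pow_mul, mul_comm, pow_mul, hn, pow_mul,
          (H31.orderOf_hom_dvd_iff _ _).1 dvd_rfl, one_pow, one_pow]
      · rw [MonoidHom.mem_ker, MonoidHom.pow_apply, ← map_pow, hn, mul_comm, pow_mul]
        have : x ^ Nat.card K = 1 :=
          Subtype.ext (congrArg (Subtype.val : K → G) (pow_card_eq_one' (x := (⟨x, hx⟩ : K))))
        rw [this, one_pow, map_one]
    exact hg
  exact ((Nat.Prime.dvd_mul hp.out).1 (e.trans h4)).elim hR.pd hK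

end

theorem rc_of_isPSolvable (G : Type u) [Group G] [Finite G] (hG : IsPSolvable p G) : RC p G := by
  induction hn : Nat.card G using Nat.strong_induction_on generalizing G with
  | _ n ih =>
  classical
  haveI := Fintype.ofFinite G
  have IH : ∀ H : Subgroup G, H ≠ ⊤ → RC p H := fun H hH =>
    ih _ (hn ▸ H3.card_lt_of_ne_top H hH) H (H76.isPSolvable_subgroup hG H) rfl
  intro L0 M0 ξ h α hα hαξ
  haveI := h.nL
  haveI := h.nM
  by_cases hd : p ∣ Nat.card G
  swap
  · exact ⟨α, hα, hαξ.mono fun x hx => inf_le_of_relP (C := ⊤) h.rel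
      (by rwa [Subgroup.card_top]) hx trivial, rfl⟩
  let S : AddSubmonoid (G → ℂ) :=
    { carrier := {χ | ∃ α, IsCharacter G α ∧ Hom M0 ξ α ∧ pRegularPart p α = pRegularPart p χ}
      zero_mem' := ⟨0, H6.isCharacter_zero, hom_zero _ _, rfl⟩
      add_mem' := by
        rintro a b ⟨x, hx, hx', ex⟩ ⟨y, hy, hy', ey⟩
        exact ⟨x + y, H6.isCharacter_add hx hy, hx'.add hy', by
          rw [H84.reg_add, H84.reg_add, ex, ey]⟩ }
  refine mem_of_constituents S hα fun χ hχ hne => ?_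
  have hχξ := Hom.constituent h.irL hα hαξ hχ hne
  have hχc := H6.irr_isCharacter hχ
  set L := pPrimeCore p G with hLdef
  have hL : ¬ p ∣ Nat.card L := H1.not_dvd_card_pPrimeCore
  have hL0 : L0 ≤ L := H1.le_pPrimeCore ((Nat.Prime.coprime_iff_not_dvd hp.out).2 h.cL).symm
  obtain ⟨τ0, hτ0, hover⟩ := H31.exists_irr_under L hχ
  have hτ := irrOn_ext hτ0
  set τ := extendByZero L τ0 with hτdef
  have eτ : ∀ x (hx : x ∈ L), τ x = τ0 ⟨x, hx⟩ := fun x hx => H7.extendByZero_of_mem L τ0 hx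
  have hτξ : Hom L0 ξ τ := by
    obtain ⟨e, he⟩ := Hom.constituent (h.irL.subgroupOf hL0) (H6.isCharacter_restrict L hχc)
      (hχξ.res L) hτ0 hover
    exact ⟨e, fun x hx => (eτ x (hL0 hx)).trans (he ⟨x, hL0 hx⟩ hx)⟩
  obtain ⟨τ', h1, h2, h3, h4⟩ := h.exists_ext_sup hL0 hL hτ hτξ
  by_cases hT : H7.inertia τ0 = ⊤
  · have hinv : ∀ g, ∀ n ∈ L, τ (g * n * g⁻¹) = τ n := fun g n hn => by
      rw [eτ n hn, eτ _ ((inferInstance : L.Normal).conj_mem n hn g)]
      exact H7.mem_inertia'.1 (hT ▸ Subgroup.mem_top g) ⟨n, hn⟩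
    obtain ⟨ζ, hζ, eζ⟩ := exists_ctx H23.pPrimeCore_le_pPrimePCore hL relP_pPrimePCore hτ hinv
    have hM0 : M0 ≤ pPrimePCore p G := H76.le_pPrimePCore_iff.2 (h.rel.mono hL0 le_rfl)
    have hR : M0 ⊔ L ≤ pPrimePCore p G := sup_le hM0 H23.pPrimeCore_le_pPrimePCore
    have h5 : τ' = fun x : (M0 ⊔ L : Subgroup G) => ζ x :=
      canon_unique (N := L.subgroupOf (M0 ⊔ L)) (fun x _ => relP_pPrimePCore (x : G) (hR x.2))
        (charOn_of_hom hζ.chM (M0 ⊔ L).subtype fun a => hR a.2) (H6.irr_isCharacter h1)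
        (hζ.irL.subgroupOf le_sup_right) (fun x hx => (h3 x hx).trans (eζ x hx).symm)
        hζ.not_dvd_deg (hζ.pd.comp hζ.chM (Subgroup.inclusion hR)) h4
    have hζξ : Hom M0 ξ ζ := by
      rw [h5] at h2
      exact h2.imp fun e he x hx => he ⟨x, Subgroup.mem_sup_left hx⟩ hx
    have hχζ : Hom L ζ χ := hom_of_inner hζ.irL (fun g m hm => hζ.inv g m (hζ.le hm)) hχ (by
      have : (fun n : L => ζ n) = τ0 := funext fun n => (eζ n n.2).trans (eτ n n.2)
      rwa [this])
    obtain ⟨H, hH, hLH, hsup⟩ := exists_proper_supplement hG hd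
    obtain ⟨β, b1, b2, b3⟩ := lift_char hζ hLH hsup (IH H hH) (H6.isCharacter_restrict H hχc)
      (hχζ.res H)
    exact ⟨β, b1, (b2.mono hM0).trans hζξ, reg_eq_of_res hG hζ hLH hsup
      (H6.char_isClassFunction b1) (H6.char_isClassFunction hχc) b3⟩
  · set T := H7.inertia τ0
    have hLT : L ≤ T := H7.le_inertia (H6.irr_isClassFunction hτ0)
    have hMT : M0 ≤ T := fun m hm => H7.mem_inertia'.2 fun n => by
      have hn' := (inferInstance : L.Normal).conj_mem n n.2 m
      rw [← eτ _ hn', ← eτ n n.2, ← h3 ⟨n, Subgroup.mem_sup_right n.2⟩ n.2,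
        ← h3 ⟨_, Subgroup.mem_sup_right hn'⟩ hn']
      exact H6.irr_isClassFunction h1 ⟨n, Subgroup.mem_sup_right n.2⟩ ⟨m, Subgroup.mem_sup_left hm⟩
    obtain ⟨ψ, hψ, hind, hψτ⟩ := H7.clifford_corr_surj hLT hτ0 le_rfl hχ hover
    have h5 := H7.clifford_le_inertia hLT hψ hτ0 le_rfl (hψτ ▸ hover)
    have h6 : Hom (L0.subgroupOf T) (fun x => ξ x) ψ := by
      obtain ⟨e, he⟩ := hτξ
      refine ⟨classInner (fun n : L => ψ ⟨n, hLT n.2⟩) τ0 * e, fun x hx => ?_⟩
      have := congrFun h5 ⟨x, hL0 hx⟩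
      rw [Pi.smul_apply, smul_eq_mul, ← eτ, he (x : G) hx, ← mul_assoc] at this
      exact this
    obtain ⟨β, b1, b2, b3⟩ := IH T hT _ _ _ (h.res (hL0.trans hLT)) ψ (H6.irr_isCharacter hψ) h6
    exact ⟨indFun T β, H7.isCharacter_indFun T b1, b2.indFun hMT h.inv, by
      rw [H84.reg_indFun, b3, ← H84.reg_indFun, hind]⟩

section
variable {G : Type*} [Group G]

/-- The restriction of `α` to the `p`-regular elements is indecomposable. -/
def Indec (p : ℕ) {G : Type*} [Group G] (α : G → ℂ) : Prop :=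
  ∀ β γ, IsCharacter G β → IsCharacter G γ →
    pRegularPart p β + pRegularPart p γ = pRegularPart p α → β = 0 ∨ γ = 0

/-- The irreducible partial characters coming from `A`. -/
def IPart (p : ℕ) {G : Type*} [Group G] (A : Set (IrrCharacter G)) : Set (G → ℂ) :=
  {f | ∃ χ ∈ A, Indec p (χ : G → ℂ) ∧ f = pRegularPart p (χ : G → ℂ)}

theorem eq_zero_of_reg {α : G → ℂ} (hα : IsCharacter G α) (h : pRegularPart p α = 0) : α = 0 :=
  H6.char_eq_zero_of_one hα (by rw [← H84.reg_one (p := p) α, h]; rfl)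

variable [Finite G]

omit hp in
theorem Indec.isIrr {α : G → ℂ} (h : Indec p α) (hα : IsCharacter G α) (h0 : α ≠ 0) :
    IsIrrCharacter G α := by
  haveI := Fintype.ofFinite G
  obtain ⟨ψ, hψ, hne⟩ := H87.exists_constituent hα h0
  rcases h ψ (α - ψ) (H6.irr_isCharacter hψ) (H6.isCharacter_sub_of_inner_ne_zero hα hψ hne)
    (by rw [← H84.reg_add, add_sub_cancel]) with e | e
  · exact absurd e (H6.irr_ne_zero hψ)
  · rw [sub_eq_zero.1 e]; exact hψ

theorem reg_mem_closure {α : G → ℂ} (hα : IsCharacter G α) :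
    pRegularPart p α ∈ AddSubmonoid.closure (IPart p (Set.univ : Set (IrrCharacter G))) := by
  induction hn : charDegree α using Nat.strong_induction_on generalizing α with
  | _ n ih =>
  by_cases h0 : α = 0
  · rw [h0, H84.reg_zero]; exact zero_mem _
  by_cases h : Indec p α
  · exact AddSubmonoid.subset_closure ⟨⟨α, h.isIrr hα h0⟩, trivial, h, rfl⟩
  simp only [Indec, not_forall, not_or] at h
  obtain ⟨β, γ, hβ, hγ, e, hβ0, hγ0⟩ := h
  have h1 : charDegree β + charDegree γ = n := by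
    rw [← hn, ← H87.deg_add hβ hγ]
    refine H87.deg_congr ?_
    have := congrFun e 1
    rwa [Pi.add_apply, H84.reg_one, H84.reg_one, H84.reg_one] at this
  have h2 := H87.deg_pos_of_ne_zero hβ hβ0
  have h3 := H87.deg_pos_of_ne_zero hγ hγ0
  rw [← e]
  exact add_mem (ih _ (by omega) hβ rfl) (ih _ (by omega) hγ rfl)

omit [Finite G] hp in
theorem exists_char_of_mem_closure {A : Set (IrrCharacter G)} {f : G → ℂ}
    (h : f ∈ AddSubmonoid.closure (IPart p A)) :
    ∃ α, IsCharacter G α ∧ f = pRegularPart p α := by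
  induction h using AddSubmonoid.closure_induction with
  | mem f hf => obtain ⟨χ, -, -, e⟩ := hf; exact ⟨χ, H84.irr_char χ, e⟩
  | zero => exact ⟨0, H6.isCharacter_zero, H84.reg_zero.symm⟩
  | add a b _ _ ha hb =>
    obtain ⟨x, hx, rfl⟩ := ha
    obtain ⟨y, hy, rfl⟩ := hb
    exact ⟨x + y, H6.isCharacter_add hx hy, (H84.reg_add x y).symm⟩

omit [Group G] [Finite G] hp in
theorem linearIndepOn_of_map {H : Type*} (Φ : (G → ℂ) →ₗ[ℂ] (H → ℂ)) {S : Set (G → ℂ)}
    {T : Set (H → ℂ)} (hS : Set.MapsTo Φ S T) (hinj : Set.InjOn Φ S)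
    (hT : LinearIndepOn ℂ id T) : LinearIndepOn ℂ id S :=
  LinearIndepOn.of_comp Φ ((hT.mono hS.image_subset).comp_of_image hinj)

theorem linearIndepOn_of_blocks {M : Ideal AlgInt} (hM : IsPModular p M)
    (h : ∀ B : Set (IrrCharacter G), IsPBlock M B → LinearIndepOn ℂ id (IPart p B)) :
    LinearIndepOn ℂ id (IPart p (Set.univ : Set (IrrCharacter G))) := by
  classical
  haveI := hM.2.1
  haveI := Fintype.ofFinite G
  rw [linearIndepOn_iff_linearIndepOn_finset]
  intro s hs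
  rw [linearIndepOn_finset_iff]
  intro c hc f hf
  obtain ⟨χ, -, hχ, e⟩ := hs hf
  set B := blockOf M (χ : G → ℂ)
  have hB : IsPBlock M B := H84.isPBlock_blockOf χ
  have h1 := (h B hB).mono (t := ↑(s.filter (· ∈ IPart p B)))
    (fun x hx => (Finset.mem_filter.1 hx).2)
  rw [linearIndepOn_finset_iff] at h1
  refine h1 c ?_ f (Finset.mem_filter.2 ⟨hf, χ, H84.mem_blockOf_self χ, hχ, e⟩)
  have h2 := congrArg (H84.blockPartL B) hc
  rw [map_zero, map_sum] at h2
  rw [← h2, Finset.sum_filter]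
  refine Finset.sum_congr rfl fun x hx => ?_
  rw [map_smul, H84.blockPartL_apply, id]
  obtain ⟨ψ, -, hψ, rfl⟩ := hs hx
  by_cases hm : ψ ∈ B
  · rw [if_pos ⟨ψ, hm, hψ, rfl⟩, H84.blockPart_reg_of_mem hM hB hm]
  · rw [H84.blockPart_reg_of_not_mem hM hB hm, smul_zero, if_neg]
    rintro ⟨ψ', hm', -, e'⟩
    exact hm (H84.mem_of_reg_eq hM hB hm' e'.symm)

/-- Restriction as a linear map. -/
def resL (H : Subgroup G) : (G → ℂ) →ₗ[ℂ] (H → ℂ) := LinearMap.funLeft ℂ ℂ Subtype.val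

end

theorem IndRed.blockPart_res {G : Type*} [Group G] [Fintype G] {M : Ideal AlgInt} [M.IsMaximal]
    {T : Subgroup G} [Fintype T] {B' : Set (IrrCharacter T)} {B : Set (IrrCharacter G)}
    (h : IndRed M T B' B) {ψ : IrrCharacter T} (hψ : ψ ∈ B') :
    blockPart B' (fun t : T => indFun T (ψ : T → ℂ) t) = ψ := by
  classical
  refine H6.classFun_ext (H84.isClassFunction_blockPart _ _) (H84.irr_class ψ) fun η hη => ?_
  rw [H84.inner_blockPart B' _ ⟨η, hη⟩]
  split_ifs with hm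
  · rw [← H7.classInner_indFun_right _ _ (H7.isClassFunction_indFun _ _),
      H6.irr_inner (h.irr ψ hψ) (h.irr _ hm), H6.irr_inner ψ.2 hη]
    refine if_congr ⟨fun e => congrArg Subtype.val (h.inj ψ hψ _ hm e), fun e => by rw [e]⟩ rfl rfl
  · refine (H6.irr_inner_ne ψ.2 hη fun e => hm ?_).symm
    have : ψ = ⟨η, hη⟩ := Subtype.ext e
    exact this ▸ hψ

/-- **Fong–Swan** (Isaacs' form). -/
theorem fong_swan {M : Ideal AlgInt} (hM : IsPModular p M) (G : Type u) [Group G] [Finite G]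
    (hG : IsPSolvable p G) :
    LinearIndepOn ℂ id (IPart p (Set.univ : Set (IrrCharacter G))) := by
  induction hn : Nat.card G using Nat.strong_induction_on generalizing G with
  | _ n ih =>
  classical
  haveI := hM.2.1
  haveI := Fintype.ofFinite G
  have IH : ∀ H : Subgroup G, H ≠ ⊤ →
      LinearIndepOn ℂ id (IPart p (Set.univ : Set (IrrCharacter H))) := fun H hH =>
    ih _ (hn ▸ H3.card_lt_of_ne_top H hH) H (H76.isPSolvable_subgroup hG H) rfl
  by_cases hd : p ∣ Nat.card G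
  swap
  · refine (H6.irr_linearIndependent (G := G)).linearIndepOn_id.mono ?_
    rintro _ ⟨χ, -, -, rfl⟩
    exact ⟨χ, (H84.reg_eq_self fun g hg => absurd (hg.trans (orderOf_dvd_natCard g)) hd).symm⟩
  refine linearIndepOn_of_blocks hM fun B hB => ?_
  rcases fong_dichotomy hM (H23.isPConstrained_of_isPSolvable hG) hB with
    ⟨θ, hθ, rfl⟩ | ⟨T, hT, B', h⟩
  · let L := pPrimeCore p G
    have hL : ¬ p ∣ Nat.card L := H1.not_dvd_card_pPrimeCore
    have hτ := irrOn_ext θ.2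
    have eτ : ∀ x (hx : x ∈ L), extendByZero L (θ : L → ℂ) x = (θ : L → ℂ) ⟨x, hx⟩ :=
      fun x hx => H7.extendByZero_of_mem L _ hx
    obtain ⟨ζ, hζ, eζ⟩ := exists_ctx H23.pPrimeCore_le_pPrimePCore hL relP_pPrimePCore hτ
      (fun g n hn => by
        rw [eτ n hn, eτ _ ((inferInstance : L.Normal).conj_mem n hn g)]
        exact congrFun (congrArg Subtype.val (hθ g)) ⟨n, hn⟩)
    obtain ⟨H, hH, hLH, hsup⟩ := exists_proper_supplement hG hd
    have hRC := rc_of_isPSolvable H (H76.isPSolvable_subgroup hG H)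
    refine linearIndepOn_of_map (resL H) ?_ ?_ (IH H hH)
    · rintro _ ⟨φ, hφ, hφi, rfl⟩
      have hφc := H84.irr_char φ
      have hφζ : Hom L ζ φ := hom_of_inner hζ.irL (fun g m hm => hζ.inv g m (hζ.le hm)) φ.2 (by
        have : (fun n : L => ζ n) = θ := funext fun n => (eζ n n.2).trans (eτ n n.2)
        rw [this]; exact mem_upSet_singleton.1 hφ)
      have hi : Indec p (fun x : H => (φ : G → ℂ) x) := by
        intro β γ hβ hγ e
        have h1 : Hom (L.subgroupOf H) (fun x => ζ x) (β + γ) :=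
          (hφζ.res H).congr fun x hx => by
            have h2 := congrFun e x
            have h3 : ¬ p ∣ orderOf x := by
              rw [← Subgroup.orderOf_coe]; exact H35.not_dvd_orderOf_of_mem hL hx
            rwa [← H84.reg_add, H84.reg_of_reg _ h3, H84.reg_of_reg _ h3] at h2
        have hir := hζ.irL.subgroupOf hLH
        obtain ⟨β', b1, -, b3⟩ := lift_char hζ hLH hsup hRC hβ
          (Hom.of_add hir (H6.isCharacter_restrict _ hβ) (H6.isCharacter_restrict _ hγ) h1)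
        obtain ⟨γ', c1, -, c3⟩ := lift_char hζ hLH hsup hRC hγ
          (Hom.of_add hir (H6.isCharacter_restrict _ hγ) (H6.isCharacter_restrict _ hβ)
            (by rwa [add_comm]))
        have h4 := hφi β' γ' b1 c1 (by
          rw [← H84.reg_add]
          refine reg_eq_of_res hG hζ hLH hsup
            (H6.char_isClassFunction (H6.isCharacter_add b1 c1)) (H84.irr_class φ) ?_
          rw [← e, ← b3, ← c3, ← H84.reg_add]; rfl)
        refine h4.imp (fun e0 => eq_zero_of_reg (p := p) hβ ?_) fun e0 => eq_zero_of_reg (p := p) hγ ?_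
        · rw [← b3, e0]; exact H84.reg_zero
        · rw [← c3, e0]; exact H84.reg_zero
      exact ⟨⟨_, hi.isIrr (H6.isCharacter_restrict H hφc)
        fun e => H84.irr_one_ne_zero φ (congrFun e 1)⟩, trivial, hi, (H84.reg_res H _).symm⟩
    · rintro _ ⟨φ, -, -, rfl⟩ _ ⟨φ', -, -, rfl⟩ e
      refine reg_eq_of_res hG hζ hLH hsup (H84.irr_class φ) (H84.irr_class φ') ?_
      rw [H84.reg_res, H84.reg_res]; exact e
  · have key : ∀ ψ ∈ B', (H84.blockPartL B').comp (resL T)
        (pRegularPart p (indFun T (ψ : T → ℂ))) = pRegularPart p (ψ : T → ℂ) := fun ψ hψ => by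
      have := H84.reg_blockPart hM h.blk (fun t : T => indFun T (ψ : T → ℂ) t)
      rw [h.blockPart_res hψ, H84.reg_res] at this
      exact this.symm
    refine linearIndepOn_of_map ((H84.blockPartL B').comp (resL T)) ?_ ?_ (IH T hT)
    · rintro _ ⟨φ, hφ, hφi, rfl⟩
      obtain ⟨ψ, hψ, e⟩ := h.exists_of_mem hφ
      refine ⟨ψ, trivial, fun β γ hβ hγ e' => ?_, by rw [e, key ψ hψ]⟩
      have h0 : ∀ α : T → ℂ, IsCharacter T α → indFun T α = 0 → α = 0 := fun α hα e0 => by
        have := congrFun e0 1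
        rw [H7.indFun_one] at this
        exact H6.char_eq_zero_of_one hα ((mul_eq_zero.1 this).resolve_left (H7.index_ne_zero' T))
      refine (hφi _ _ (H7.isCharacter_indFun T hβ) (H7.isCharacter_indFun T hγ) ?_).imp
        (h0 β hβ) (h0 γ hγ)
      rw [e, H84.reg_indFun, H84.reg_indFun, H84.reg_indFun, ← H7.indFun_add, e']
    · rintro _ ⟨φ, hφ, -, rfl⟩ _ ⟨φ', hφ', -, rfl⟩ e
      obtain ⟨ψ, hψ, e1⟩ := h.exists_of_mem hφ
      obtain ⟨ψ', hψ', e2⟩ := h.exists_of_mem hφ'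
      rw [e1, e2, key ψ hψ, key ψ' hψ'] at e
      rw [e1, e2, H84.reg_indFun, H84.reg_indFun, e]

end H34
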