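import Mathlib
import Cfsg.Agent.Base
import Cfsg.Agent.Lib.Block.DefOne
import Cfsg.Agent.Lib.Char.Galois

/-! `p`-conjugation of characters; Galois action on blocks of defect one. -/

set_option autoImplicit false
set_option linter.unusedSectionVars false
set_option linter.style.haveILetI false

open Cfsg H33 H35
open H86 (Cen Nor cs IsSyl)
open scoped ComplexConjugate

namespace H84

/-- `σ` acts on the `n`-th roots of unity as the `m`-th power -/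
def ActsAs (σ : ℂ →+* ℂ) (n m : ℕ) : Prop := ∀ ζ : ℂ, ζ ^ n = 1 → σ ζ = ζ ^ m

theorem fix_iff_modEq {σ : ℂ →+* ℂ} {n m d : ℕ} (hd : d ∣ n) (hd0 : d ≠ 0) (h : ActsAs σ n m) :
    σ (Complex.exp (2 * Real.pi * Complex.I / d)) = Complex.exp (2 * Real.pi * Complex.I / d) ↔
      m ≡ 1 [MOD d] := by
  have hζ := Complex.isPrimitiveRoot_exp d hd0
  rw [h _ ((hζ.pow_eq_one_iff_dvd n).mpr hd)]
  have := (isOfFinOrder_iff_pow_eq_one.mpr ⟨d, Nat.pos_of_ne_zero hd0, hζ.pow_eq_one⟩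
    ).pow_eq_pow_iff_modEq (m := 1) (n := m)
  rwa [pow_one, ← hζ.eq_orderOf] at this

section
variable {G : Type*} [Group G] [Finite G] {p : ℕ} [hp : Fact p.Prime]

theorem ordCompl_card_ne_zero : ordCompl[p] (Nat.card G) ≠ 0 :=
  (Nat.ordCompl_pos p Nat.card_pos.ne').ne'

theorem pow_eq_of_reg {m : ℕ} (hm : m ≡ 1 [MOD ordCompl[p] (Nat.card G)]) {g : G}
    (hg : ¬ p ∣ orderOf g) : g ^ m = g := by
  conv_rhs => rw [← pow_one g]
  exact pow_eq_pow_iff_modEq.mpr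
    (hm.of_dvd (Nat.dvd_ordCompl_of_dvd_not_dvd (orderOf_dvd_natCard g) hg))

theorem exists_actsAs_of_fix (σ : ℂ →+* ℂ)
    (h : σ (Complex.exp (2 * Real.pi * Complex.I / (ordCompl[p] (Nat.card G) : ℕ))) =
      Complex.exp (2 * Real.pi * Complex.I / (ordCompl[p] (Nat.card G) : ℕ))) :
    ∃ m : ℕ, m.Coprime (Nat.card G) ∧ m ≡ 1 [MOD ordCompl[p] (Nat.card G)] ∧
      ActsAs σ (Nat.card G) m := by
  obtain ⟨m, h1, h2⟩ := H8.exists_pow_of_ringHom σ (Nat.card_pos (α := G))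
  exact ⟨m, h1, (fix_iff_modEq (Nat.ordCompl_dvd _ p) ordCompl_card_ne_zero h2).mp h, h2⟩

theorem exists_fix_modEq {k : ℕ} (hk : ¬ p ∣ k) :
    ∃ (σ : ℂ ≃+* ℂ) (m : ℕ), m.Coprime (Nat.card G) ∧ m ≡ 1 [MOD ordCompl[p] (Nat.card G)] ∧
      m ≡ k [MOD ordProj[p] (Nat.card G)] ∧ ActsAs σ (Nat.card G) m ∧
      σ (Complex.exp (2 * Real.pi * Complex.I / (ordCompl[p] (Nat.card G) : ℕ))) =
        Complex.exp (2 * Real.pi * Complex.I / (ordCompl[p] (Nat.card G) : ℕ)) := by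
  have hco : (ordCompl[p] (Nat.card G)).Coprime (ordProj[p] (Nat.card G)) :=
    ((Nat.coprime_ordCompl hp.out Nat.card_pos.ne').symm).pow_right _
  obtain ⟨m, h1, h2⟩ := Nat.chineseRemainder hco 1 k
  have hm : m.Coprime (Nat.card G) := by
    rw [← Nat.ordProj_mul_ordCompl_eq_self (Nat.card G) p]
    refine Nat.Coprime.mul_right ?_ ?_
    · rw [Nat.Coprime, h2.gcd_eq]
      exact ((Nat.Prime.coprime_iff_not_dvd hp.out).mpr hk).symm.pow_right _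
    · rw [Nat.Coprime, h1.gcd_eq, Nat.gcd_one_left]
  obtain ⟨σ, hσ⟩ := H8.exists_ringEquiv_pow (Nat.card_pos (α := G)) hm
  exact ⟨σ, m, hm, h1, h2, hσ,
    (fix_iff_modEq (σ := (σ : ℂ →+* ℂ)) (Nat.ordCompl_dvd _ p) ordCompl_card_ne_zero hσ).mpr h1⟩

theorem ActsAs.char {σ : ℂ →+* ℂ} {m : ℕ} (hσ : ActsAs σ (Nat.card G) m) {χ : G → ℂ}
    (hχ : IsCharacter G χ) (g : G) : σ (χ g) = χ (g ^ m) :=
  H8.IsCharacter_map_eq_pow hχ σ Nat.card_pos hσ pow_card_eq_one'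

theorem ActsAs.gen {σ : ℂ →+* ℂ} {m : ℕ} (hσ : ActsAs σ (Nat.card G) m) {χ : G → ℂ}
    (hχ : IsGeneralizedCharacter G χ) (g : G) : σ (χ g) = χ (g ^ m) :=
  H8.IsGeneralizedCharacter_map_eq_pow hχ σ Nat.card_pos hσ pow_card_eq_one'

theorem ActsAs.char_sub {σ : ℂ →+* ℂ} {m : ℕ} (hσ : ActsAs σ (Nat.card G) m) {H : Subgroup G}
    {χ : H → ℂ} (hχ : IsCharacter H χ) (g : H) : σ (χ g) = χ (g ^ m) :=
  H8.IsCharacter_map_eq_pow hχ σ Nat.card_pos hσ (Subtype.ext (by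
    rw [SubgroupClass.coe_pow, pow_card_eq_one', OneMemClass.coe_one]))

theorem ActsAs.char_of_reg {σ : ℂ →+* ℂ} {m : ℕ} (hσ : ActsAs σ (Nat.card G) m)
    (hm : m ≡ 1 [MOD ordCompl[p] (Nat.card G)]) {χ : G → ℂ} (hχ : IsCharacter G χ) {g : G}
    (hg : ¬ p ∣ orderOf g) : σ (χ g) = χ g := by
  rw [hσ.char hχ, pow_eq_of_reg hm hg]

theorem pow_eq_pPart_pow_mul {m : ℕ} (hm : m ≡ 1 [MOD ordCompl[p] (Nat.card G)]) (g : G) :
    g ^ m = pPart p g ^ m * pReg p g := by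
  conv_lhs => rw [← pPart_mul_pReg p g]
  rw [(commute_pPart_pReg p g).mul_pow, pow_eq_of_reg hm (not_dvd_orderOf_pReg p g)]

end

variable {G : Type*} [Group G] [Fintype G] {p : ℕ} [hp : Fact p.Prime] {P : Subgroup G}

namespace Log
variable (L : Log p P)

include L in
theorem pKer_pow {θ : IrrCharacter (Cen P)} (h : PKer P θ) {m : ℕ}
    (hm : m ≡ 1 [MOD ordCompl[p] (Nat.card G)]) (c : Cen P) :
    (θ : Cen P → ℂ) (c ^ m) = (θ : Cen P → ℂ) c := by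
  have hx := pPart_mem_of_mem_Cen L.card L.ind c.2
  have key : ∀ k : ℕ, (θ : Cen P → ℂ) (pPart p c ^ k * pReg p c) = (θ : Cen P → ℂ) (pReg p c) :=
    fun k => H6.char_mul_of_eq_one (irr_char θ) (h _ (by
      rw [SubgroupClass.coe_pow, ← pPart_coe]; exact pow_mem hx k)) _
  have e : c ^ m = pPart p c ^ m * pReg p c := Subtype.ext (by
    rw [SubgroupClass.coe_pow, pow_eq_pPart_pow_mul hm, Subgroup.coe_mul, SubgroupClass.coe_pow,
      pPart_coe, pReg_coe])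
  rw [e, key, ← key 1, pow_one, pPart_mul_pReg]

theorem map_th {θ : IrrCharacter (Cen P)} (h : PKer P θ) {σ : ℂ →+* ℂ} {m : ℕ}
    (hσ : ActsAs σ (Nat.card G) m) (hm : m ≡ 1 [MOD ordCompl[p] (Nat.card G)]) (i : ZMod p)
    (c : Cen P) : σ ((L.th θ i : Cen P → ℂ) c) = (L.th θ (i * m) : Cen P → ℂ) c := by
  rw [hσ.char_sub (irr_char _), th_apply, th_apply, L.pKer_pow h hm, SubgroupClass.coe_pow,
    L.l_pow c.2, mul_assoc]

theorem map_indc {θ : IrrCharacter (Cen P)} (h : PKer P θ) {σ : ℂ →+* ℂ} {m : ℕ}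
    (hσ : ActsAs σ (Nat.card G) m) (hm : m ≡ 1 [MOD ordCompl[p] (Nat.card G)]) (i : ZMod p)
    (g : G) : σ (L.indc θ i g) = L.indc θ (i * m) g := by
  rw [indc, H7.ringHom_indFun, indc]
  congr 1
  exact funext fun c => L.map_th h hσ hm i c

end Log

namespace DefOne
variable {L : Log p P} {B : Set (IrrCharacter G)} {θ : IrrCharacter (Cen P)} (D : DefOne L B θ)

theorem map_X (h : PKer P θ) {σ : ℂ →+* ℂ} {m : ℕ} (hσ : ActsAs σ (Nat.card G) m)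
    (hm : m ≡ 1 [MOD ordCompl[p] (Nat.card G)]) {χ : IrrCharacter G} (hχ : χ ∈ D.X) (g : G) :
    σ ((χ : G → ℂ) g) = (χ : G → ℂ) g := by
  by_cases hg : p ∣ orderOf g
  · have h1 := congrArg σ (D.sing_X χ hχ g hg)
    rw [map_mul, map_mul, map_natCast, map_intCast, L.map_indc h hσ hm, zero_mul,
      ← D.sing_X χ hχ g hg] at h1
    exact mul_left_cancel₀ (H6.card_ne_zero (G := L.H θ)) h1
  · exact hσ.char_of_reg hm (irr_char χ) hg

theorem map_ψ (h : PKer P θ) {σ : ℂ →+* ℂ} {m : ℕ} (hσ : ActsAs σ (Nat.card G) m)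
    (hm : m ≡ 1 [MOD ordCompl[p] (Nat.card G)]) (i k : (ZMod p)ˣ) (hk : (k : ZMod p) = m) (g : G) :
    σ ((D.ψ i : G → ℂ) g) = (D.ψ (i * k) : G → ℂ) g := by
  by_cases hg : p ∣ orderOf g
  · rw [D.sing_ψ i g hg, D.sing_ψ _ g hg, map_mul, map_intCast, L.map_indc h hσ hm, Units.val_mul,
      hk]
  · rw [hσ.char_of_reg hm (irr_char _) hg, D.reg_eq i _ hg]

end DefOne

end H84
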